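import Cfsg.Agent.H99.Aschbacher.TensorPower
import Cfsg.Agent.H99.TensorU.Maximal
import Cfsg.Agent.H99.TensorS.Maximal

/-!
Transport of maximality of the stabiliser of a tensor power of a form from standard coordinates to an arbitrary
frame, for alternating and for hermitian forms.
-/

set_option autoImplicit false
set_option linter.unusedSectionVars false

namespace Cfsg.Agent.H58.Wreath

open Matrix Cfsg.Geo Cfsg.Agent.H99.Asch

variable {F : Type*} [Field F] {ι : Type} [Fintype ι] [DecidableEq ι] {k t : ℕ}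

/-- From tensor coordinates to the coordinates of a frame. -/
noncomputable def frameHom (e : ι ≃ (Fin t → Fin k)) (P : GL ι F) : GL (Fin t → Fin k) F ≃* GL ι F :=
  (glReindex e.symm).trans (MulAut.conj P)

theorem frameHom_mulVec (e : ι ≃ (Fin t → Fin k)) (P : GL ι F) (g : GL (Fin t → Fin k) F)
    (x : (Fin t → Fin k) → F) :
    (frameHom e P g : Matrix ι ι F) *ᵥ ((P : Matrix ι ι F) *ᵥ (x ∘ e)) =
      (P : Matrix ι ι F) *ᵥ (((g : Matrix _ _ F) *ᵥ x) ∘ e) := by
  have hre : ((glReindex e.symm g : GL ι F) : Matrix ι ι F) *ᵥ (x ∘ e) = ((g : Matrix _ _ F) *ᵥ x) ∘ e := by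
    funext i
    exact Equiv.sum_comp e fun b => (g : Matrix _ _ F) (e i) b * x b
  change ((P * glReindex e.symm g * P⁻¹ : GL ι F) : Matrix ι ι F) *ᵥ _ = _
  rw [Units.val_mul, Units.val_mul, ← Matrix.mulVec_mulVec, H98.gl_inv_mulVec, ← Matrix.mulVec_mulVec, hre]

theorem exists_coords (e : ι ≃ (Fin t → Fin k)) (P : GL ι F) (v : ι → F) :
    ∃ x : (Fin t → Fin k) → F, (P : Matrix ι ι F) *ᵥ (x ∘ e) = v :=
  ⟨(((P⁻¹ : GL ι F) : Matrix ι ι F) *ᵥ v) ∘ e.symm, by
    rw [Function.comp_assoc, Equiv.symm_comp_self, Function.comp_id, H98.gl_mulVec_inv]⟩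

theorem frameHom_det (e : ι ≃ (Fin t → Fin k)) (P : GL ι F) (g : GL (Fin t → Fin k) F) :
    (frameHom e P g : Matrix ι ι F).det = (g : Matrix (Fin t → Fin k) (Fin t → Fin k) F).det := by
  change ((P * glReindex e.symm g * P⁻¹ : GL ι F) : Matrix ι ι F).det = _
  rw [Units.val_mul, Units.val_mul, Matrix.det_units_conj, H99.Tensor.det_glReindex]

theorem frameHom_wreath (e : ι ≃ (Fin t → Fin k)) (P : GL ι F) :
    (tensorWreathStandard k t F).map (frameHom e P).toMonoidHom = tensorWreathSubgroup k t e P := by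
  rw [tensorWreathSubgroup, Subgroup.map_map]
  rfl

/-- A frame moved by an element of the stabiliser. -/
theorem wreath_move (e : ι ≃ (Fin t → Fin k)) (P : GL ι F) {N : GL (Fin t → Fin k) F}
    (hN : N ∈ tensorWreathStandard k t F) :
    (tensorWreathStandard k t F).map (frameHom e (P * glReindex e.symm N)).toMonoidHom =
      tensorWreathSubgroup k t e P := by
  have key : ∀ g, frameHom e (P * glReindex e.symm N) g = frameHom e P (N * g * N⁻¹) := fun g => by
    simp [frameHom, map_mul, map_inv, mul_assoc]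
  rw [← frameHom_wreath]
  ext x
  constructor
  · rintro ⟨g, hg, rfl⟩
    exact ⟨N * g * N⁻¹, mul_mem (mul_mem hN hg) (inv_mem hN), (key g).symm⟩
  · rintro ⟨g, hg, rfl⟩
    refine ⟨N⁻¹ * g * N, mul_mem (mul_mem (inv_mem hN) hg) hN, ?_⟩
    change frameHom e (P * glReindex e.symm N) _ = _
    rw [key]
    simp [mul_assoc]

/-- Maximality in standard coordinates gives maximality in any frame. -/
theorem isMaximalIn_frame (e : ι ≃ (Fin t → Fin k)) (P : GL ι F) {N : GL (Fin t → Fin k) F}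
    (hN : N ∈ tensorWreathStandard k t F) {S : Subgroup (GL (Fin t → Fin k) F)} {K : Subgroup (GL ι F)}
    (hS : ∀ g, frameHom e (P * glReindex e.symm N) g ∈ K ↔ g ∈ S)
    (h : IsMaximalIn S (tensorWreathStandard k t F ⊓ S)) :
    IsMaximalIn K (tensorWreathSubgroup k t e P ⊓ K) := by
  set Φ := frameHom e (P * glReindex e.symm N) with hΦ
  have hmap : S.map Φ.toMonoidHom = K := by
    ext x
    constructor
    · rintro ⟨g, hg, rfl⟩
      exact (hS g).2 hg
    · intro hx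
      exact ⟨Φ.symm x, (hS _).1 (by rwa [Φ.apply_symm_apply]), Φ.apply_symm_apply x⟩
  have := H99.Tensor.isMaximalIn_map Φ h
  rwa [Subgroup.map_inf _ _ _ (show Function.Injective Φ.toMonoidHom from Φ.injective), hmap,
    hΦ, wreath_move e P hN] at this

/-- The isometries of a Gram matrix. -/
def isoJ {κ : Type} [Fintype κ] [DecidableEq κ] (J : Matrix κ κ F) : Subgroup (GL κ F) where
  carrier := {y | (y : Matrix κ κ F)ᵀ * J * (y : Matrix κ κ F) = J}
  mul_mem' {x y} hx hy := by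
    change (((x * y : GL κ F) : Matrix κ κ F))ᵀ * J * ((x * y : GL κ F) : Matrix κ κ F) = J
    rw [Units.val_mul, transpose_mul]
    calc (y : Matrix κ κ F)ᵀ * (x : Matrix κ κ F)ᵀ * J * ((x : Matrix κ κ F) * (y : Matrix κ κ F)) =
          (y : Matrix κ κ F)ᵀ * ((x : Matrix κ κ F)ᵀ * J * (x : Matrix κ κ F)) * (y : Matrix κ κ F) := by
            simp only [Matrix.mul_assoc]
      _ = J := by rw [hx, hy]
  one_mem' := by simp
  inv_mem' {x} hx := by
    have h1 : (x : Matrix κ κ F) * ((x⁻¹ : GL κ F) : Matrix κ κ F) = 1 := by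
      rw [← Units.val_mul, mul_inv_cancel, Units.val_one]
    change ((x⁻¹ : GL κ F) : Matrix κ κ F)ᵀ * J * ((x⁻¹ : GL κ F) : Matrix κ κ F) = J
    conv_lhs => rw [← hx]
    calc ((x⁻¹ : GL κ F) : Matrix κ κ F)ᵀ * ((x : Matrix κ κ F)ᵀ * J * (x : Matrix κ κ F)) *
          ((x⁻¹ : GL κ F) : Matrix κ κ F) =
        ((x : Matrix κ κ F) * ((x⁻¹ : GL κ F) : Matrix κ κ F))ᵀ * J *
          ((x : Matrix κ κ F) * ((x⁻¹ : GL κ F) : Matrix κ κ F)) := by
          simp only [transpose_mul, Matrix.mul_assoc]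
      _ = J := by rw [h1, transpose_one, Matrix.one_mul, Matrix.mul_one]

theorem mem_spGL {m : ℕ} (g : GL (Fin m ⊕ Fin m) F) : g ∈ Cfsg.spGL m F ↔
    ∀ u v : Fin m ⊕ Fin m → F, Cfsg.sympForm m F ((g : Matrix _ _ F) *ᵥ u) ((g : Matrix _ _ F) *ᵥ v) =
      Cfsg.sympForm m F u v := Iff.rfl

theorem mem_GU {n q : ℕ} (g : GL (Fin n) F) : g ∈ Cfsg.GU n F q ↔
    ∀ u v : Fin n → F, Cfsg.hermForm n F q ((g : Matrix _ _ F) *ᵥ u) ((g : Matrix _ _ F) *ᵥ v) =
      Cfsg.hermForm n F q u v := Iff.rfl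

theorem formOfGram_id {κ : Type} [Fintype κ] (G : Matrix κ κ F) (x y : κ → F) :
    formOfGram id G x y = x ⬝ᵥ G *ᵥ y := by
  simp only [formOfGram, dotProduct, Matrix.mulVec, Finset.mul_sum, mul_assoc, id]

/-- The alternating case. -/
theorem sp_wreath_maximal {m : ℕ} (e : (Fin m ⊕ Fin m) ≃ (Fin t → Fin k)) (P : GL (Fin m ⊕ Fin m) F)
    (f₁ : (Fin k → F) → (Fin k → F) → F)
    (hT : IsTensorPowerFormStructure id (Cfsg.sympForm m F) f₁ e P)
    (h : IsMaximalIn (isoJ (tpow fun _ : Fin t => gramMatrix f₁))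
      (tensorWreathStandard k t F ⊓ isoJ (tpow fun _ : Fin t => gramMatrix f₁))) :
    IsMaximalIn (Cfsg.spGL m F) (tensorWreathSubgroup k t e P ⊓ Cfsg.spGL m F) := by
  obtain ⟨c, hc, hT⟩ := hT
  set G := tpow fun _ : Fin t => gramMatrix f₁ with hG
  have hform : ∀ x y : (Fin t → Fin k) → F, Cfsg.sympForm m F ((P : Matrix (Fin m ⊕ Fin m) (Fin m ⊕ Fin m) F) *ᵥ (x ∘ e))
      ((P : Matrix (Fin m ⊕ Fin m) (Fin m ⊕ Fin m) F) *ᵥ (y ∘ e)) = c * (x ⬝ᵥ G *ᵥ y) := fun x y => by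
    rw [hT]
    congr 1
    simp only [hG, dotProduct, Matrix.mulVec, tpow_apply, Finset.mul_sum, mul_assoc, id]
  refine isMaximalIn_frame e P (one_mem _) (fun g => ?_) h
  rw [map_one, mul_one]
  constructor
  · intro hg
    rw [mem_spGL] at hg
    change _ * G * _ = G
    ext i j
    have hij : Cfsg.sympForm m F ((frameHom e P g : Matrix (Fin m ⊕ Fin m) (Fin m ⊕ Fin m) F) *ᵥ ((P : Matrix (Fin m ⊕ Fin m) (Fin m ⊕ Fin m) F) *ᵥ ((Pi.single i (1 : F) : (Fin t → Fin k) → F) ∘ e)))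
        ((frameHom e P g : Matrix (Fin m ⊕ Fin m) (Fin m ⊕ Fin m) F) *ᵥ ((P : Matrix (Fin m ⊕ Fin m) (Fin m ⊕ Fin m) F) *ᵥ ((Pi.single j (1 : F) : (Fin t → Fin k) → F) ∘ e))) =
        Cfsg.sympForm m F ((P : Matrix (Fin m ⊕ Fin m) (Fin m ⊕ Fin m) F) *ᵥ ((Pi.single i (1 : F) : (Fin t → Fin k) → F) ∘ e)) ((P : Matrix (Fin m ⊕ Fin m) (Fin m ⊕ Fin m) F) *ᵥ ((Pi.single j (1 : F) : (Fin t → Fin k) → F) ∘ e)) := by
      generalize (P : Matrix (Fin m ⊕ Fin m) (Fin m ⊕ Fin m) F) *ᵥ ((Pi.single i (1 : F) : (Fin t → Fin k) → F) ∘ e) = u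
      generalize (P : Matrix (Fin m ⊕ Fin m) (Fin m ⊕ Fin m) F) *ᵥ ((Pi.single j (1 : F) : (Fin t → Fin k) → F) ∘ e) = v
      exact hg u v
    rw [frameHom_mulVec, frameHom_mulVec, hform, hform] at hij
    have h' := mul_left_cancel₀ hc hij
    rw [← vecMul_transpose, ← dotProduct_mulVec, mulVec_mulVec, mulVec_mulVec] at h'
    simpa [Matrix.mulVec_single_one, ← Matrix.mul_assoc] using h'
  · intro hg
    rw [mem_spGL]
    intro u v
    obtain ⟨x, rfl⟩ := exists_coords e P u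
    obtain ⟨y, rfl⟩ := exists_coords e P v
    rw [frameHom_mulVec, frameHom_mulVec, hform, hform, ← vecMul_transpose, ← dotProduct_mulVec, mulVec_mulVec,
      mulVec_mulVec]
    exact congrArg (fun Z => c * (x ⬝ᵥ Z *ᵥ y)) hg

open H99.TensorU H99.Tensor in
/-- The hermitian case. -/
theorem su_wreath_maximal [Fintype F] {n q : ℕ} (hF : Fintype.card F = q ^ 2) (hk : 1 ≤ k) (ht : 1 ≤ t)
    (e : Fin n ≃ (Fin t → Fin k)) (P : GL (Fin n) F) (f₁ : (Fin k → F) → (Fin k → F) → F)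
    (hf₁ : IsUnitaryFormPow q f₁)
    (hT : IsTensorPowerFormStructure (fun x : F => x ^ q) (Cfsg.hermForm n F q) f₁ e P)
    (h : ∀ [StarRing F], (∀ x : F, star x = x ^ q) →
      IsMaximalIn (suP F (Fin t → Fin k)) (tensorWreathStandard k t F ⊓ suP F (Fin t → Fin k))) :
    IsMaximalIn (Cfsg.GU n F q ⊓ specialLinear (Fin n) F)
      (tensorWreathSubgroup k t e P ⊓ (Cfsg.GU n F q ⊓ specialLinear (Fin n) F)) := by
  classical
  set σ := H98.Herm.frobQ hF
  letI : StarRing F :=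
    { star := fun x => x ^ q
      star_involutive := fun x => Cfsg.Agent.H3.pow_q_pow_q hF x
      star_mul := fun x y => by
        change (x * y) ^ q = y ^ q * x ^ q
        rw [mul_pow, mul_comm]
      star_add := fun x y => map_add σ x y }
  have hσ : ∀ x : F, σ x = star x := fun x => rfl
  have hstd := H98.Herm.isUnitary_std (n := n) hF
  have hns : ∃ x : F, star x ≠ x := by
    by_contra h
    push Not at h
    exact hstd.ne_refl (RingEquiv.ext h)
  have hu₁ : IsUnitaryForm σ f₁ :=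
    ⟨hstd.ne_refl, hstd.involutive, hf₁.add_left, hf₁.smul_left, hf₁.herm, hf₁.nondegenerate⟩
  obtain ⟨Q₁, hQ₁⟩ := exists_normal hσ hu₁
  set Qm := tpow fun _ : Fin t => (Q₁ : Matrix (Fin k) (Fin k) F) with hQm
  obtain ⟨c, hc0, hT⟩ := hT
  have hsp : ∀ u v : Fin n → F, Cfsg.hermForm n F q u v = sp v u := fun u v => by
    simp only [Cfsg.hermForm, sp, dotProduct, Pi.star_apply]
    exact Finset.sum_congr rfl fun i _ => mul_comm _ _
  have hform : ∀ x y : (Fin t → Fin k) → F,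
      sp ((P : Matrix (Fin n) (Fin n) F) *ᵥ ((Qm *ᵥ y) ∘ e)) ((P : Matrix (Fin n) (Fin n) F) *ᵥ ((Qm *ᵥ x) ∘ e)) =
        c * sp y x := by
    intro x y
    rw [← hsp, hT]
    congr 1
    have hmap : star (Qm *ᵥ y) = Qm.map star *ᵥ star y := by
      funext i
      simp only [Pi.star_apply, Matrix.mulVec, dotProduct, star_sum, star_mul', Matrix.map_apply]
    have hG : Qmᵀ * (tpow fun _ : Fin t => gramMatrix f₁) * Qm.map star = 1 := by
      have hm : Qm.map star = tpow fun _ : Fin t => (Q₁ : Matrix (Fin k) (Fin k) F).map star := by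
        ext i j
        change starRingEnd F (∏ l : Fin t, (Q₁ : Matrix (Fin k) (Fin k) F) (i l) (j l)) = _
        rw [map_prod]
        rfl
      rw [hm, hQm, tpow_transpose, ← tpow_mul, ← tpow_mul, ← tpow_one (k := t) (s := k)]
      congr 1
      funext l
      exact hQ₁
    have e1 : (Qm *ᵥ x) ⬝ᵥ (tpow fun _ : Fin t => gramMatrix f₁) *ᵥ star (Qm *ᵥ y) = sp y x := by
      rw [hmap, mulVec_mulVec, ← vecMul_transpose, ← dotProduct_mulVec, mulVec_mulVec,
        ← Matrix.mul_assoc, hG, one_mulVec, sp, dotProduct_comm]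
    rw [← e1]
    simp only [dotProduct, Matrix.mulVec, tpow_apply, Finset.mul_sum, mul_assoc, Pi.star_apply]
    rfl
  have hc : star c = c := by
    let p0 : Fin t → Fin k := fun _ => ⟨0, by omega⟩
    have h := hform (Pi.single p0 1) (Pi.single p0 1)
    have h' := congrArg star h
    rw [sp_star, star_mul', sp_star, h, sp_single_left, Pi.single_eq_same, mul_one, mul_one] at h'
    exact h'.symm
  obtain ⟨l, hl⟩ := exists_norm hns hc
  have hl0 : l ≠ 0 := fun h => hc0 (by rw [← hl, h, zero_mul])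
  let i₀ : Fin t := ⟨0, by omega⟩
  let a : Fin t → F := Function.update 1 i₀ l⁻¹
  have ha : ∀ i, a i ≠ 0 := fun i => by
    by_cases hi : i = i₀
    · subst hi; simp [a, hl0]
    · simp [a, Function.update_of_ne hi]
  let N : GL (Fin t → Fin k) F := tpowUnit fun i =>
    GeneralLinearGroup.mkOfDetNeZero (a i • (Q₁ : Matrix (Fin k) (Fin k) F)) (by
      rw [det_smul]; exact mul_ne_zero (pow_ne_zero _ (ha i)) (Matrix.GeneralLinearGroup.det Q₁).ne_zero)
  have hN : ((N : GL (Fin t → Fin k) F) : Matrix (Fin t → Fin k) (Fin t → Fin k) F) = l⁻¹ • Qm := by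
    change tpow (fun i => a i • (Q₁ : Matrix (Fin k) (Fin k) F)) = _
    rw [tpow_smul, Finset.prod_eq_single i₀ (fun i _ hi => by simp [a, Function.update_of_ne hi]) (by simp)]
    simp [a, hQm]
  set Pn := P * glReindex e.symm N with hPn'
  have key : ∀ x : (Fin t → Fin k) → F, (Pn : Matrix (Fin n) (Fin n) F) *ᵥ (x ∘ e) =
      l⁻¹ • ((P : Matrix (Fin n) (Fin n) F) *ᵥ ((Qm *ᵥ x) ∘ e)) := by
    intro x
    rw [hPn', Units.val_mul, ← mulVec_mulVec, ← mulVec_smul]
    congr 1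
    funext i
    refine (Equiv.sum_comp e fun b => (N : Matrix _ _ F) (e i) b * x b).trans ?_
    change ((N : Matrix _ _ F) *ᵥ x) (e i) = _
    rw [hN, smul_mulVec]
    rfl
  have hfn : ∀ x y : (Fin t → Fin k) → F, Cfsg.hermForm n F q ((Pn : Matrix (Fin n) (Fin n) F) *ᵥ (x ∘ e))
      ((Pn : Matrix (Fin n) (Fin n) F) *ᵥ (y ∘ e)) = sp y x := by
    intro x y
    rw [hsp, key, key, sp_smul_left, sp_smul_right, hform, ← hl]
    have : star l ≠ 0 := star_ne_zero.2 hl0
    rw [star_inv₀]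
    field_simp
  refine isMaximalIn_frame e P (tpowUnit_mem _ : N ∈ _) (fun g => ?_) (h fun x => rfl)
  have hdet : (frameHom e Pn g ∈ specialLinear (Fin n) F) ↔
      (g : Matrix (Fin t → Fin k) (Fin t → Fin k) F).det = 1 := by
    rw [← frameHom_det e Pn g]
    exact ⟨fun h => congrArg Units.val (MonoidHom.mem_ker.mp h), fun h => MonoidHom.mem_ker.2 (Units.ext h)⟩
  constructor
  · rintro ⟨hg, hgd⟩
    replace hg := (mem_GU _).1 hg
    refine ⟨mul_eq_one_comm.1 ?_, hdet.1 hgd⟩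
    ext i j
    have hij : Cfsg.hermForm n F q
        ((frameHom e Pn g : Matrix (Fin n) (Fin n) F) *ᵥ ((Pn : Matrix (Fin n) (Fin n) F) *ᵥ ((Pi.single j (1 : F) : (Fin t → Fin k) → F) ∘ e)))
        ((frameHom e Pn g : Matrix (Fin n) (Fin n) F) *ᵥ ((Pn : Matrix (Fin n) (Fin n) F) *ᵥ ((Pi.single i (1 : F) : (Fin t → Fin k) → F) ∘ e))) =
        Cfsg.hermForm n F q ((Pn : Matrix (Fin n) (Fin n) F) *ᵥ ((Pi.single j (1 : F) : (Fin t → Fin k) → F) ∘ e))
          ((Pn : Matrix (Fin n) (Fin n) F) *ᵥ ((Pi.single i (1 : F) : (Fin t → Fin k) → F) ∘ e)) := by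
      generalize (Pn : Matrix (Fin n) (Fin n) F) *ᵥ ((Pi.single j (1 : F) : (Fin t → Fin k) → F) ∘ e) = u
      generalize (Pn : Matrix (Fin n) (Fin n) F) *ᵥ ((Pi.single i (1 : F) : (Fin t → Fin k) → F) ∘ e) = v
      exact hg u v
    rw [frameHom_mulVec, frameHom_mulVec, hfn, hfn, sp_single_left, Pi.single_apply, sp, star_mulVec,
      ← dotProduct_mulVec, mulVec_mulVec, show star (Pi.single i (1 : F) : (Fin t → Fin k) → F) = Pi.single i 1 by
        funext x; by_cases hx : x = i <;> simp [hx, Pi.single_eq_of_ne]] at hij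
    rw [Matrix.one_apply, ← hij]
    simp [Matrix.mulVec_single_one]
  · rintro ⟨hg, hgd⟩
    refine ⟨(mem_GU _).2 fun u v => ?_, hdet.2 hgd⟩
    obtain ⟨x, rfl⟩ := exists_coords e Pn u
    obtain ⟨y, rfl⟩ := exists_coords e Pn v
    rw [frameHom_mulVec, frameHom_mulVec, hfn, hfn, sp, star_mulVec, ← dotProduct_mulVec, mulVec_mulVec,
      mul_eq_one_comm.1 hg, one_mulVec]
    rfl

end Cfsg.Agent.H58.Wreath
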